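import Cfsg.Agent.H16.P.McG.D0

/-! Generated by tools/h0/tr.py. -/

set_option maxRecDepth 100000
set_option maxHeartbeats 0
set_option Elab.async false
set_option synthInstance.maxSize 2000

namespace H16.McG
open H16 H0.TR
open scoped commutatorElement

theorem ch3 : chain F3 N3 = true ∧ F4 = N3.reverse ++ F3 := by decide +kernel
theorem chz : ∀ j < 275, j ∈ F4 := by decide +kernel
theorem cc : cnt [] 0 = 275 ∧ cnt [0] 11 = 112 ∧ cnt [11, 0] 16 = 81 ∧ cnt [16, 11, 0] 93 = 10 ∧ cnt [93, 16, 11, 0] 96 = 9 ∧ cnt [96, 93, 16, 11, 0] 99 = 8 := by decide +kernel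
theorem nc : (Finset.univ.filter fun y : Fin 275 => adj 0 y = true).card = 112 ∧ (Finset.univ.filter fun y : Fin 275 => adj 0 y = false ∧ y.val ≠ 0).card = 162 ∧ (Finset.univ.filter fun y : Fin 275 => adj 0 y = true ∧ adj 11 y = true).card = 30 ∧
    (Finset.univ.filter fun y : Fin 275 => (adj 0 y = false ∧ y.val ≠ 0) ∧ adj 167 y = true).card = 56 ∧ adj 0 0 = false ∧ adj 0 11 = true ∧ adj 11 11 = false ∧ adj 0 167 = false ∧ adj 167 167 = false := by decide +kernel

end H16.McG
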